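import Cfsg.Agent.Lib.Helper65.PHyp.ADec

set_option autoImplicit false
set_option linter.unusedSectionVars false

/-!
# PHYP (S5974), regime [T2E], package [ASOLVE]

Invariant hyperbolic `m`-spaces for an involution of a-type, from the decomposition [ADEC].
-/

namespace Cfsg.Agent.Lib.Helper65.PHyp

open Cfsg.Agent.Lib.Helper23.OHyp Cfsg.Agent.Lib.Helper12.PHyp

universe u

/-- subspaces of the fixed space are invariant -/
theorem inv_of_le_fixSp {F : Type u} [Field F] {ι : Type} [Fintype ι] [DecidableEq ι]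
    {x : Matrix ι ι F} {W : Submodule F (ι → F)} (h : W ≤ fixSp x) :
    Cfsg.Agent.Lib.Helper23.OHyp.Inv x W := by
  unfold Cfsg.Agent.Lib.Helper23.OHyp.Inv
  rintro _ ⟨w, hw, rfl⟩
  have h1 : w ∈ fixSp x := h hw
  unfold fixSp at h1
  rw [LinearMap.mem_ker, LinearMap.sub_apply, Module.End.one_apply, sub_eq_zero] at h1
  rw [h1]
  exact hw

/-- [ASOLVE] -/
theorem pkgASolve_of (hADec : PkgADec.{u}) (hG : PkgGeom2.{u}) (hSP : PkgSumPlus.{u})
    (hE : PkgNdEven.{u}) : PkgASolve.{u} := by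
  intro F _ _ ι _ _ Q x hStd V hInv hNd hA m hm
  have hQ := hStd.nondeg
  obtain ⟨s2, V', hV'V, hV'fix, hV'nd, hfr, hW⟩ := hADec F ι Q x hStd V hInv hNd hA
  have he' : Even (Module.finrank F V') := hE F ι Q hQ hStd.two V' hV'nd
  -- gluing a block part and a pointwise fixed part
  have glue : ∀ t : ℕ, t ≤ s2 → ∀ W0 : Submodule F (ι → F), W0 ≤ V' → Nd Q W0 → Plus Q W0 →
      ∀ n : ℕ, n = 4 * t + Module.finrank F W0 → HypIn Q x V n := by
    intro t ht W0 hW0 hW0nd hW0plus n hn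
    obtain ⟨WA, h1, h2, h3, h4, h5, h6⟩ := hW t ht
    have hperp : Perp Q WA W0 := fun u hu v hv => h6 u hu v (hW0 hv)
    obtain ⟨hnd, hplus, hfrs⟩ := hSP F ι Q hQ WA W0 h3 hW0nd hperp h4 hW0plus
    unfold HypIn
    exact ⟨WA ⊔ W0, sup_le h1 (hW0.trans hV'V), inv_sup h2 (inv_of_le_fixSp (hW0.trans hV'fix)),
      hnd, hplus, by rw [hfrs, hn, h5]⟩
  have hbot : Module.finrank F (⊥ : Submodule F (ι → F)) = 0 := by simp
  obtain ⟨ke, hke⟩ := he'
  constructor
  · intro hm4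
    by_cases hle : m ≤ 4 * s2
    · exact glue (m / 4) (by omega) ⊥ bot_le (nd_bot Q) (plus_bot hQ) m (by rw [hbot]; omega)
    · obtain ⟨W0, hW0, hW0nd, hW0plus, hW0fr⟩ :=
        hG F ι Q hQ hStd.two V' hV'nd (m - 4 * s2) ⟨(m - 4 * s2) / 2, by omega⟩ (by omega)
      exact glue s2 (le_refl _) W0 hW0 hW0nd hW0plus m (by rw [hW0fr]; omega)
  · intro hm2
    rcases Nat.eq_zero_or_pos ke with hke0 | hkepos
    · right; left
      omega
    · by_cases hke1 : ke = 1
      · -- `dim V' = 2`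
        by_cases hP : Plus Q V'
        · left
          exact glue ((m - 2) / 4) (by omega) V' (le_refl _) hV'nd hP m (by omega)
        · right; right
          obtain ⟨WA, h1, h2, h3, h4, h5, h6⟩ := hW s2 (le_refl _)
          obtain ⟨U, hU, hUts, hUfr⟩ := h4
          exact ⟨V', U, hV'nd, by omega, hP, hUts, fun u hu v hv => h6 u (hU hu) v hv,
            by omega⟩
      · -- `dim V' ≥ 4`
        left
        by_cases hle : m - 2 ≤ 4 * s2
        · obtain ⟨W0, hW0, hW0nd, hW0plus, hW0fr⟩ :=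
            hG F ι Q hQ hStd.two V' hV'nd 2 ⟨1, rfl⟩ (by omega)
          exact glue ((m - 2) / 4) (by omega) W0 hW0 hW0nd hW0plus m (by rw [hW0fr]; omega)
        · obtain ⟨W0, hW0, hW0nd, hW0plus, hW0fr⟩ :=
            hG F ι Q hQ hStd.two V' hV'nd (m - 4 * s2) ⟨(m - 4 * s2) / 2, by omega⟩ (by omega)
          exact glue s2 (le_refl _) W0 hW0 hW0nd hW0plus m (by rw [hW0fr]; omega)

example (h1 : PkgADec.{0}) (h2 : PkgGeom2.{0}) (h3 : PkgSumPlus.{0}) (h4 : PkgNdEven.{0}) :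
    PkgASolve.{0} := pkgASolve_of h1 h2 h3 h4
example (h1 : PkgADec.{3}) (h2 : PkgGeom2.{3}) (h3 : PkgSumPlus.{3}) (h4 : PkgNdEven.{3}) :
    PkgASolve.{3} := pkgASolve_of h1 h2 h3 h4

end Cfsg.Agent.Lib.Helper65.PHyp
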