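import Cfsg.Agent.Lib.Helper65.PHyp.ADec

set_option autoImplicit false

/-!
# PHYP (S5974), regime [T2E], package [PEEL]

An involution that is not of a-type on the invariant nondegenerate subspace `V` fixes a
hyperbolic `m`-space inside `V` as soon as `2 m + 2 ≤ dim V` (`m` even): peel off an invariant
hyperbolic plane and recurse.
-/

namespace Cfsg.Agent.Lib.Helper65.PHyp

open Cfsg.Agent.Lib.Helper23.OHyp Cfsg.Agent.Lib.Helper12.PHyp

universe u

/-- [PEEL] -/
theorem pkgPeel_of (hRP : PkgRP.{u}) (hPerp : Cfsg.Agent.Lib.Helper23.OHyp.PkgPerp.{u})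
    (hSP : PkgSumPlus.{u}) (hAS : PkgASolve.{u}) : PkgPeel.{u} := by
  intro F _ _ ι _ _ Q x hStd m
  have hQ := hStd.nondeg
  have hdet : IsUnit x.det := Matrix.isUnit_det_of_right_inverse hStd.sq
  induction m using Nat.strong_induction_on with
  | _ m ih =>
    intro hme V hInv hNd hnA hfr
    rcases Nat.eq_zero_or_pos m with hm0 | hmpos
    · subst hm0
      unfold HypIn
      exact ⟨⊥, bot_le, inv_bot x, nd_bot Q, plus_bot hQ, by simp⟩
    · have hm2 : 2 ≤ m := by
        obtain ⟨k, hk⟩ := hme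
        omega
      obtain ⟨P, hPV, hPinv, hPnd, hPplus, hPfr⟩ :=
        hRP F ι Q x hStd V hInv hNd (by omega) hnA
      obtain ⟨V1, hV1V, hV1inv, hV1nd, hPV1, hsup, hfrV⟩ :=
        hPerp F ι Q hQ x hStd.isom hdet V P hPV hInv hPinv hNd hPnd
      have hme2 : Even (m - 2) := by
        obtain ⟨k, hk⟩ := hme
        exact ⟨k - 1, by omega⟩
      have glue : ∀ W1 : Submodule F (ι → F), W1 ≤ V1 → Inv x W1 → Nd Q W1 → Plus Q W1 →
          Module.finrank F W1 = m - 2 → HypIn Q x V m := by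
        intro W1 h1 h2 h3 h4 h5
        have hperp : Perp Q P W1 := fun u hu v hv => hPV1 u hu v (h1 hv)
        obtain ⟨hnd, hplus, hfrs⟩ := hSP F ι Q hQ P W1 hPnd h3 hperp hPplus h4
        unfold HypIn
        exact ⟨P ⊔ W1, sup_le hPV (h1.trans hV1V), inv_sup hPinv h2, hnd, hplus,
          by rw [hfrs]; omega⟩
      by_cases hA1 : AType Q x V1
      · have hAS1 := hAS F ι Q x hStd V1 hV1inv hV1nd hA1
        by_cases h4 : (m - 2) % 4 = 0
        · obtain ⟨W1, h1, h2, h3, h4', h5⟩ := (hAS1 (m - 2) (by omega)).1 h4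
          exact glue W1 h1 h2 h3 h4' h5
        · have hm4 : m % 4 = 0 := by
            obtain ⟨k, hk⟩ := hme
            omega
          obtain ⟨W, h1, h2, h3, h4', h5⟩ := (hAS1 m (by omega)).1 hm4
          unfold HypIn
          exact ⟨W, h1.trans hV1V, h2, h3, h4', h5⟩
      · obtain ⟨W1, h1, h2, h3, h4, h5⟩ :=
          ih (m - 2) (by omega) hme2 V1 hV1inv hV1nd hA1 (by omega)
        exact glue W1 h1 h2 h3 h4 h5

example (h1 : PkgRP.{0}) (h2 : Cfsg.Agent.Lib.Helper23.OHyp.PkgPerp.{0}) (h3 : PkgSumPlus.{0})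
    (h4 : PkgASolve.{0}) : PkgPeel.{0} := pkgPeel_of h1 h2 h3 h4
example (h1 : PkgRP.{3}) (h2 : Cfsg.Agent.Lib.Helper23.OHyp.PkgPerp.{3}) (h3 : PkgSumPlus.{3})
    (h4 : PkgASolve.{3}) : PkgPeel.{3} := pkgPeel_of h1 h2 h3 h4

end Cfsg.Agent.Lib.Helper65.PHyp
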