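import Cfsg.Agent.Lib.Helper12.PHyp.T2EDefs

set_option autoImplicit false
set_option linter.unusedSectionVars false

/-!
# PHYP (S5974), regime [T2E], package [ADEC]

Decomposition of an a-type involution on an invariant nondegenerate subspace: `s2` invariant
plus-type blocks of dimension 4 and a pointwise fixed nondegenerate complement.
-/

namespace Cfsg.Agent.Lib.Helper65.PHyp

open Cfsg.Agent.Lib.Helper23.OHyp Cfsg.Agent.Lib.Helper12.PHyp

universe u

section basics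

variable {F : Type u} [Field F] {ι : Type} [Fintype ι] [DecidableEq ι]

theorem inv_bot (x : Matrix ι ι F) : Inv x (⊥ : Submodule F (ι → F)) := by
  unfold Cfsg.Agent.Lib.Helper23.OHyp.Inv
  rw [Submodule.map_bot]

theorem inv_sup {x : Matrix ι ι F} {W₁ W₂ : Submodule F (ι → F)} (h₁ : Inv x W₁)
    (h₂ : Inv x W₂) : Inv x (W₁ ⊔ W₂) := by
  unfold Cfsg.Agent.Lib.Helper23.OHyp.Inv at *
  rw [Submodule.map_sup]
  exact sup_le_sup h₁ h₂

theorem nd_bot (Q : (ι → F) → F) : Nd Q (⊥ : Submodule F (ι → F)) := by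
  intro w hw hw0
  exact absurd ((Submodule.mem_bot F).mp hw) hw0

theorem quad_zero {Q : (ι → F) → F} (hQ : Cfsg.Geo.IsNondegenerateQuadraticForm Q) :
    Q 0 = 0 := by
  have h := hQ.smul 0 0
  rw [zero_smul] at h
  rw [h]
  ring

theorem plus_bot {Q : (ι → F) → F} (hQ : Cfsg.Geo.IsNondegenerateQuadraticForm Q) :
    Plus Q (⊥ : Submodule F (ι → F)) := by
  refine ⟨⊥, le_refl _, ?_, by simp⟩
  intro w hw
  rw [(Submodule.mem_bot F).mp hw]
  exact quad_zero hQ

theorem perp_bot_left {Q : (ι → F) → F} (hQ : Cfsg.Geo.IsNondegenerateQuadraticForm Q)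
    (V : Submodule F (ι → F)) : Perp Q ⊥ V := by
  intro u hu v _
  rw [(Submodule.mem_bot F).mp hu]
  have h := hQ.polar_bilinear.smul_left 0 0 v
  rw [zero_smul] at h
  rw [h]
  ring

theorem perp_sup_left {Q : (ι → F) → F} (hQ : Cfsg.Geo.IsNondegenerateQuadraticForm Q)
    {W₁ W₂ V : Submodule F (ι → F)} (h₁ : Perp Q W₁ V) (h₂ : Perp Q W₂ V) :
    Perp Q (W₁ ⊔ W₂) V := by
  intro u hu v hv
  obtain ⟨a, ha, w, hw, rfl⟩ := Submodule.mem_sup.mp hu
  rw [hQ.polar_bilinear.add_left, h₁ a ha v hv, h₂ w hw v hv, add_zero]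

end basics

/-- [ADEC] -/
theorem pkgADec_of (hAB : PkgAB.{u}) (hPerp : Cfsg.Agent.Lib.Helper23.OHyp.PkgPerp.{u})
    (hSP : PkgSumPlus.{u}) : PkgADec.{u} := by
  intro F _ _ ι _ _ Q x hStd
  have hQ := hStd.nondeg
  have hdet : IsUnit x.det := Matrix.isUnit_det_of_right_inverse hStd.sq
  have key : ∀ n : ℕ, ∀ V : Submodule F (ι → F), Module.finrank F V = n → Inv x V → Nd Q V →
      AType Q x V →
      ∃ (s2 : ℕ) (V' : Submodule F (ι → F)), V' ≤ V ∧ V' ≤ fixSp x ∧ Nd Q V' ∧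
        Module.finrank F V = 4 * s2 + Module.finrank F V' ∧
        ∀ t : ℕ, t ≤ s2 → ∃ WA : Submodule F (ι → F), WA ≤ V ∧ Inv x WA ∧ Nd Q WA ∧ Plus Q WA ∧
          Module.finrank F WA = 4 * t ∧ Perp Q WA V' := by
    intro n
    induction n using Nat.strong_induction_on with
    | _ n ih =>
      intro V hVn hInv hNd hA
      by_cases hfix : V ≤ fixSp x
      · refine ⟨0, V, le_refl V, hfix, hNd, by omega, ?_⟩
        intro t ht
        have ht0 : t = 0 := by omega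
        subst ht0
        exact ⟨⊥, bot_le, inv_bot x, nd_bot Q, plus_bot hQ, by simp, perp_bot_left hQ V⟩
      · obtain ⟨A, hAV, hAinv, hAnd, hAplus, hAfr⟩ := hAB F ι Q x hStd V hInv hNd hA hfix
        obtain ⟨V1, hV1V, hV1inv, hV1nd, hAV1, hsup, hfr⟩ :=
          hPerp F ι Q hQ x hStd.isom hdet V A hAV hInv hAinv hNd hAnd
        have hA1 : AType Q x V1 := fun v hv => hA v (hV1V hv)
        obtain ⟨s2, V', hV'V1, hV'fix, hV'nd, hfr1, hW⟩ :=
          ih (Module.finrank F V1) (by omega) V1 rfl hV1inv hV1nd hA1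
        refine ⟨s2 + 1, V', hV'V1.trans hV1V, hV'fix, hV'nd, by omega, ?_⟩
        intro t ht
        rcases Nat.eq_zero_or_pos t with ht0 | htpos
        · subst ht0
          obtain ⟨WA, h1, h2, h3, h4, h5, h6⟩ := hW 0 (Nat.zero_le _)
          exact ⟨WA, h1.trans hV1V, h2, h3, h4, h5, h6⟩
        · obtain ⟨t', rfl⟩ : ∃ t', t = t' + 1 := ⟨t - 1, by omega⟩
          obtain ⟨W1, h1, h2, h3, h4, h5, h6⟩ := hW t' (by omega)
          have hperp : Perp Q A W1 := fun u hu v hv => hAV1 u hu v (h1 hv)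
          obtain ⟨hnd, hplus, hfrs⟩ := hSP F ι Q hQ A W1 hAnd h3 hperp hAplus h4
          refine ⟨A ⊔ W1, sup_le hAV (h1.trans hV1V), inv_sup hAinv h2, hnd, hplus,
            by rw [hfrs]; omega, ?_⟩
          exact perp_sup_left hQ (fun u hu v hv => hAV1 u hu v (hV'V1 hv)) h6
  intro V hInv hNd hA
  exact key _ V rfl hInv hNd hA

example (h1 : PkgAB.{0}) (h2 : Cfsg.Agent.Lib.Helper23.OHyp.PkgPerp.{0}) (h3 : PkgSumPlus.{0}) :
    PkgADec.{0} := pkgADec_of h1 h2 h3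
example (h1 : PkgAB.{3}) (h2 : Cfsg.Agent.Lib.Helper23.OHyp.PkgPerp.{3}) (h3 : PkgSumPlus.{3}) :
    PkgADec.{3} := pkgADec_of h1 h2 h3

end Cfsg.Agent.Lib.Helper65.PHyp
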