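import Cfsg.Agent.Lib.Helper63.PHyp.Defs

set_option autoImplicit false

/-!
# PHYP (S5974), package [NUMDER]: pure arithmetic

If (ii), (iii) and `SCond` all fail, the number of blocks `j = 2d / c` is `Valid` and has no
`Good` pair.
-/

namespace Cfsg.Agent.Lib.Helper65.PHyp

open Cfsg.Agent.Lib.Helper63.PHyp

/-- uniqueness of quotient and remainder -/
theorem divmod_unique {c e j M l : ℕ} (hc : 0 < c) (he : e < c) (hl : l < c)
    (h : e + c * j = c * M + l) : e = l ∧ j = M := by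
  have h1 : (e + c * j) % c = (c * M + l) % c := by rw [h]
  rw [Nat.add_mul_mod_self_left, Nat.mul_add_mod, Nat.mod_eq_of_lt he, Nat.mod_eq_of_lt hl] at h1
  subst h1
  have h2 : c * j = c * M := by omega
  exact ⟨rfl, Nat.eq_of_mul_eq_mul_left hc h2⟩

/-- [NUMDER] -/
theorem pkgNumDer : PkgNumDer := by
  intro d m i c hd hm hme hmd hi hc hnum hsc
  have hcpos : 0 < c := by rw [hc]; split_ifs <;> omega
  have e1 := Nat.div_add_mod m c
  have e2 := Nat.mod_lt m hcpos
  have e3 := Nat.div_add_mod (2 * d) c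
  have e4 := Nat.mod_lt (2 * d) hcpos
  unfold NumOdd NumEven at hnum
  unfold SCond at hsc
  rcases Nat.even_or_odd i with hie | hio
  · -- `i` even, `c = i`
    have hci : c = i := by rw [hc, if_pos hie]
    subst hci
    obtain ⟨M, hM⟩ : ∃ M, m / c = M := ⟨_, rfl⟩
    obtain ⟨l, hl⟩ : ∃ l, m % c = l := ⟨_, rfl⟩
    obtain ⟨J, hJ⟩ : ∃ J, (2 * d) / c = J := ⟨_, rfl⟩
    obtain ⟨k, hk⟩ : ∃ k, (2 * d) % c = k := ⟨_, rfl⟩
    simp only [hM, hl, hJ, hk] at hnum hsc e1 e2 e3 e4
    have hce : c % 2 = 0 := Nat.even_iff.mp hie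
    have hM0 : M = 0 ∨ c ≤ c * M := by
      rcases Nat.eq_zero_or_pos M with h | h
      · exact Or.inl h
      · exact Or.inr (Nat.le_mul_of_pos_right c h)
    have hM0' : M = 0 → c * M = 0 := by rintro rfl; rfl
    have hJpos : 1 ≤ J := by
      by_contra hJ0
      have hJ0' : J = 0 := by omega
      subst hJ0'
      rw [Nat.mul_zero] at e3
      exact hsc ⟨by omega, by omega, Or.inl (by omega)⟩
    have hT : l = k → (2 * d + m - 2 * k) / c = J + M := by
      intro hlk
      have h1 : 2 * d + m - 2 * k = c * (J + M) := by rw [Nat.mul_add]; omega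
      rw [h1, Nat.mul_div_cancel_left _ hcpos]
    simp only [Nat.even_iff, Nat.odd_iff] at hnum hsc
    refine ⟨J, ?_, ?_⟩
    · unfold Valid
      refine ⟨hJpos, by omega, ?_⟩
      intro hcJ
      refine Or.inr (Nat.even_iff.mpr ?_)
      omega
    · rintro ⟨j', e, hg⟩
      unfold Good at hg
      obtain ⟨hj', he, hle, h0, hpar⟩ := hg
      have hek : e ≤ k := by omega
      obtain ⟨hel, hjM⟩ := divmod_unique hcpos (by omega) e2 (by omega : e + c * j' = c * M + l)
      subst hel hjM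
      unfold Tau at h0 hpar
      simp only [Nat.even_iff, Nat.odd_iff] at h0 hpar
      omega
  · -- `i` odd, `c = 2 i`
    have hci : c = 2 * i := by rw [hc, if_neg (Nat.not_even_iff_odd.mpr hio)]
    obtain ⟨M, hM⟩ : ∃ M, m / c = M := ⟨_, rfl⟩
    obtain ⟨l, hl⟩ : ∃ l, m % c = l := ⟨_, rfl⟩
    obtain ⟨J, hJ⟩ : ∃ J, (2 * d) / c = J := ⟨_, rfl⟩
    obtain ⟨k, hk⟩ : ∃ k, (2 * d) % c = k := ⟨_, rfl⟩
    simp only [hM, hl, hJ, hk] at hnum hsc e1 e2 e3 e4
    have hio2 : i % 2 = 1 := Nat.odd_iff.mp hio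
    have hM0 : M = 0 ∨ c ≤ c * M := by
      rcases Nat.eq_zero_or_pos M with h | h
      · exact Or.inl h
      · exact Or.inr (Nat.le_mul_of_pos_right c h)
    have hM0' : M = 0 → c * M = 0 := by rintro rfl; rfl
    simp only [Nat.even_iff, Nat.odd_iff] at hnum hsc
    have hkl : k < l := by omega
    have hJpos : 1 ≤ J := by
      by_contra hJ0
      have hJ0' : J = 0 := by omega
      subst hJ0'
      rw [Nat.mul_zero] at e3
      omega
    refine ⟨J, ?_, ?_⟩
    · unfold Valid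
      exact ⟨hJpos, by omega, fun _ => Or.inl hio⟩
    · rintro ⟨j', e, hg⟩
      unfold Good at hg
      obtain ⟨hj', he, hle, -, -⟩ := hg
      have hek : e ≤ k := by omega
      obtain ⟨hel, hjM⟩ := divmod_unique hcpos (by omega) e2 (by omega : e + c * j' = c * M + l)
      omega

end Cfsg.Agent.Lib.Helper65.PHyp
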