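import Cfsg.Agent.Lib.Helper65.PHyp.NumDer

set_option autoImplicit false

/-!
# PHYP (S5974), package [NUMFIX]: pure arithmetic

Under (ii) or (iii) every `Valid` number of blocks `j` has a `Good` pair `(j', e)`.
-/

namespace Cfsg.Agent.Lib.Helper65.PHyp

open Cfsg.Agent.Lib.Helper63.PHyp

/-- [NUMFIX] -/
theorem pkgNumFix : PkgNumFix := by
  intro d m i c hd hm hme hmd hi hc hnum j hval
  have hcpos : 0 < c := by rw [hc]; split_ifs <;> omega
  have e1 := Nat.div_add_mod m c
  have e2 := Nat.mod_lt m hcpos
  have e3 := Nat.div_add_mod (2 * d) c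
  have e4 := Nat.mod_lt (2 * d) hcpos
  unfold NumOdd NumEven at hnum
  unfold Valid at hval
  obtain ⟨hj1, hjle, hjtau⟩ := hval
  rcases Nat.even_or_odd i with hie | hio
  · -- `i` even, `c = i`
    have hci : c = i := by rw [hc, if_pos hie]
    subst hci
    obtain ⟨M, hM⟩ : ∃ M, m / c = M := ⟨_, rfl⟩
    obtain ⟨l, hl⟩ : ∃ l, m % c = l := ⟨_, rfl⟩
    obtain ⟨J, hJ⟩ : ∃ J, (2 * d) / c = J := ⟨_, rfl⟩
    obtain ⟨k, hk⟩ : ∃ k, (2 * d) % c = k := ⟨_, rfl⟩
    simp only [hM, hl, hJ, hk] at hnum e1 e2 e3 e4
    have hce : c % 2 = 0 := Nat.even_iff.mp hie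
    have hjJ : j ≤ J := by
      by_contra h
      have h1 : c * (J + 1) ≤ c * j := Nat.mul_le_mul_left c (by omega)
      rw [Nat.mul_add, Nat.mul_one] at h1
      omega
    have hjJ' : j < J → c * j + c ≤ c * J := by
      intro h
      have h1 : c * (j + 1) ≤ c * J := Nat.mul_le_mul_left c h
      rw [Nat.mul_add, Nat.mul_one] at h1
      exact h1
    have hT : l = k → (2 * d + m - 2 * k) / c = J + M := by
      intro hlk
      have h1 : 2 * d + m - 2 * k = c * (J + M) := by rw [Nat.mul_add]; omega
      rw [h1, Nat.mul_div_cancel_left _ hcpos]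
    simp only [Nat.even_iff, Nat.odd_iff] at hnum
    by_cases hP : l = 0 ∧ M % 2 = 1
    · -- `m = c M` with `M` odd: then `2d = c J` with `J` odd
      obtain ⟨hl0, hModd⟩ := hP
      have hk0 : k = 0 := by omega
      have hJodd : J % 2 = 1 := by omega
      have hjltJ : j < J := by
        rcases Nat.lt_or_ge j J with h | h
        · exact h
        · have hjeq : j = J := by omega
          subst hjeq
          have h1 := hjtau (by omega)
          unfold Tau at h1
          simp only [Nat.even_iff, Nat.odd_iff] at h1
          omega
      by_cases hjM : j < M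
      · have h1 : c * j < c * M := (Nat.mul_lt_mul_left hcpos).mpr hjM
        refine ⟨j, m - c * j, ?_⟩
        unfold Good
        refine ⟨le_refl j, by omega, by omega, ?_, ?_⟩
        · intro h0
          omega
        · intro h2
          omega
      · have hM1 : 1 ≤ M := by omega
        have hcM1 : c * (M - 1) + c = c * M := by
          have h1 : c * (M - 1 + 1) = c * M := by rw [Nat.sub_add_cancel hM1]
          rw [Nat.mul_add, Nat.mul_one] at h1
          exact h1
        have h3 := hjJ' hjltJ
        refine ⟨M - 1, c, ?_⟩
        unfold Good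
        refine ⟨by omega, by omega, by omega, ?_, ?_⟩
        · intro h0
          omega
        · intro h2 _
          have hj1J : j + 1 = J := by
            have h4 : c * (j + 1) = c * J := by rw [Nat.mul_add, Nat.mul_one]; omega
            exact Nat.eq_of_mul_eq_mul_left hcpos h4
          exact iff_of_true (Or.inr (Nat.even_iff.mpr (by omega)))
            (Or.inr (Nat.even_iff.mpr (by omega)))
    · have hP' : l = 0 → M % 2 = 0 := by
        intro h
        omega
      by_cases hjM : j ≤ M
      · have hcj : c * j ≤ c * M := Nat.mul_le_mul_left c hjM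
        refine ⟨j, m - c * j, ?_⟩
        unfold Good
        refine ⟨le_refl j, by omega, by omega, ?_, ?_⟩
        · intro h0
          obtain ⟨h0l, hjeq⟩ :=
            divmod_unique hcpos hcpos e2 (by omega : 0 + c * j = c * M + l)
          refine Or.inr (Nat.even_iff.mpr ?_)
          have := hP' h0l.symm
          omega
        · intro h2
          omega
      · have hMj : M < j := by omega
        rcases Nat.lt_or_ge j J with hlt | hge
        · have h3 := hjJ' hlt
          refine ⟨M, l, ?_⟩
          unfold Good
          refine ⟨by omega, by omega, by omega, ?_, ?_⟩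
          · intro h0
            exact Or.inr (Nat.even_iff.mpr (hP' h0))
          · intro h2
            omega
        · have hjeq : j = J := by omega
          subst hjeq
          have hv : k = 0 → j % 2 = 0 := by
            intro hk0
            have h1 := hjtau (by omega)
            unfold Tau at h1
            simp only [Nat.even_iff, Nat.odd_iff] at h1
            omega
          have hlk : l ≤ k := by omega
          refine ⟨M, l, ?_⟩
          unfold Good
          refine ⟨by omega, by omega, by omega, ?_, ?_⟩
          · intro h0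
            exact Or.inr (Nat.even_iff.mpr (hP' h0))
          · intro h2 hlpos
            have hlk' : l = k := by omega
            have hTe := hT hlk'
            have hpar : M % 2 = j % 2 := by omega
            unfold Tau
            simp only [Nat.even_iff, Nat.odd_iff]
            omega
  · -- `i` odd, `c = 2 i`
    have hci : c = 2 * i := by rw [hc, if_neg (Nat.not_even_iff_odd.mpr hio)]
    obtain ⟨M, hM⟩ : ∃ M, m / c = M := ⟨_, rfl⟩
    obtain ⟨l, hl⟩ : ∃ l, m % c = l := ⟨_, rfl⟩
    obtain ⟨J, hJ⟩ : ∃ J, (2 * d) / c = J := ⟨_, rfl⟩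
    obtain ⟨k, hk⟩ : ∃ k, (2 * d) % c = k := ⟨_, rfl⟩
    simp only [hM, hl, hJ, hk] at hnum e1 e2 e3 e4
    have hio2 : i % 2 = 1 := Nat.odd_iff.mp hio
    simp only [Nat.even_iff, Nat.odd_iff] at hnum
    have hlk : l ≤ k := by omega
    have htau : ∀ x, Tau i x := fun x => Or.inl hio
    have hjJ : j ≤ J := by
      by_contra h
      have h1 : c * (J + 1) ≤ c * j := Nat.mul_le_mul_left c (by omega)
      rw [Nat.mul_add, Nat.mul_one] at h1
      omega
    have hjJ' : j < J → c * j + c ≤ c * J := by
      intro h
      have h1 : c * (j + 1) ≤ c * J := Nat.mul_le_mul_left c h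
      rw [Nat.mul_add, Nat.mul_one] at h1
      exact h1
    by_cases hjM : j ≤ M
    · have hcj : c * j ≤ c * M := Nat.mul_le_mul_left c hjM
      refine ⟨j, m - c * j, ?_⟩
      unfold Good
      exact ⟨le_refl j, by omega, by omega, fun _ => htau j,
        fun _ _ => iff_of_true (htau j) (htau j)⟩
    · rcases Nat.lt_or_ge j J with hlt | hge
      · have h3 := hjJ' hlt
        refine ⟨M, l, ?_⟩
        unfold Good
        exact ⟨by omega, by omega, by omega, fun _ => htau M,
          fun _ _ => iff_of_true (htau M) (htau j)⟩
      · have hjeq : j = J := by omega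
        subst hjeq
        refine ⟨M, l, ?_⟩
        unfold Good
        exact ⟨by omega, by omega, by omega, fun _ => htau M,
          fun _ _ => iff_of_true (htau M) (htau j)⟩

end Cfsg.Agent.Lib.Helper65.PHyp
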